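import Cfsg.Agent.H4.DiscClass

/-!
Tensor products of bilinear forms: Gram matrices, non-degeneracy, and type of symmetric forms.
-/

set_option autoImplicit false

namespace Cfsg.Agent.H4

open Module
open scoped TensorProduct Kronecker

variable {F U W : Type*} [Field F] [AddCommGroup U] [Module F U] [AddCommGroup W] [Module F W]

theorem tmul_bilin_apply (B₁ : LinearMap.BilinForm F U) (B₂ : LinearMap.BilinForm F W)
    (u u' : U) (w w' : W) :
    (B₁.tmul B₂) (u ⊗ₜ[F] w) (u' ⊗ₜ[F] w') = B₁ u u' * B₂ w w' := by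
  rw [LinearMap.BilinForm.tensorDistrib_tmul, smul_eq_mul, mul_comm]

variable {ι κ : Type*} [Fintype ι] [DecidableEq ι] [Fintype κ] [DecidableEq κ]

/-- The matrix of a tensor product of forms is the Kronecker product. -/
theorem toMatrix_tmul (B₁ : LinearMap.BilinForm F U) (B₂ : LinearMap.BilinForm F W)
    (b : Basis ι F U) (c : Basis κ F W) :
    LinearMap.BilinForm.toMatrix (b.tensorProduct c) (B₁.tmul B₂) =
      LinearMap.BilinForm.toMatrix b B₁ ⊗ₖ LinearMap.BilinForm.toMatrix c B₂ := by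
  ext ⟨i, j⟩ ⟨i', j'⟩
  simp [LinearMap.BilinForm.toMatrix_apply, mul_comm]

theorem det_toMatrix_tmul (B₁ : LinearMap.BilinForm F U) (B₂ : LinearMap.BilinForm F W)
    (b : Basis ι F U) (c : Basis κ F W) :
    (LinearMap.BilinForm.toMatrix (b.tensorProduct c) (B₁.tmul B₂)).det =
      (LinearMap.BilinForm.toMatrix b B₁).det ^ Fintype.card κ *
        (LinearMap.BilinForm.toMatrix c B₂).det ^ Fintype.card ι := by
  rw [toMatrix_tmul, Matrix.det_kronecker]

/-- The tensor product of non-degenerate forms is non-degenerate. -/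
theorem tmul_nondegenerate [FiniteDimensional F U] [FiniteDimensional F W]
    {B₁ : LinearMap.BilinForm F U} {B₂ : LinearMap.BilinForm F W}
    (h₁ : B₁.Nondegenerate) (h₂ : B₂.Nondegenerate) : (B₁.tmul B₂).Nondegenerate := by
  classical
  let b := Module.finBasis F U
  let c := Module.finBasis F W
  refine (LinearMap.BilinForm.nondegenerate_iff_det_ne_zero (b.tensorProduct c)).2 ?_
  rw [det_toMatrix_tmul]
  exact mul_ne_zero (pow_ne_zero _ ((LinearMap.BilinForm.nondegenerate_iff_det_ne_zero b).1 h₁))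
    (pow_ne_zero _ ((LinearMap.BilinForm.nondegenerate_iff_det_ne_zero c).1 h₂))

/-- The tensor product of symmetric forms is symmetric. -/
theorem isSymm_tmul {B₁ : LinearMap.BilinForm F U} {B₂ : LinearMap.BilinForm F W}
    (h₁ : B₁.IsSymm) (h₂ : B₂.IsSymm) : LinearMap.BilinForm.IsSymm (B₁.tmul B₂) := by
  refine ⟨fun x y => ?_⟩
  have h : LinearMap.flip (B₁.tmul B₂) = B₁.tmul B₂ := by
    refine TensorProduct.ext' fun u w => TensorProduct.ext' fun u' w' => ?_
    rw [LinearMap.flip_apply, tmul_bilin_apply, tmul_bilin_apply, h₁.eq u' u, h₂.eq w' w]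
  exact (LinearMap.congr_fun (LinearMap.congr_fun h x) y).symm

/-- A non-degenerate alternating form has a totally isotropic subspace of half the dimension. -/
theorem exists_lagrangian [FiniteDimensional F U] {B : LinearMap.BilinForm F U}
    (hB : B.Nondegenerate) (hA : B.IsAlt) {k : ℕ} (hU : finrank F U = 2 * k) :
    ∃ L : Submodule F U, finrank F L = k ∧ ∀ x ∈ L, ∀ y ∈ L, B x y = 0 := by
  let S := {n : ℕ | ∃ L : Submodule F U, (∀ x ∈ L, ∀ y ∈ L, B x y = 0) ∧ finrank F L = n}
  have hne : S.Nonempty := ⟨0, ⊥, by simp, finrank_bot F U⟩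
  have hbdd : BddAbove S := ⟨finrank F U, fun n ⟨L, _, hn⟩ => hn ▸ L.finrank_le⟩
  obtain ⟨L, hL, hn⟩ := Nat.sSup_mem hne hbdd
  refine ⟨L, ?_, hL⟩
  have hle : L ≤ B.orthogonal L := fun x hx y hy => hL y hy x hx
  have heq : B.orthogonal L = L := by
    refine le_antisymm (fun x hx => ?_) hle
    by_contra hxL
    have hiso : ∀ a ∈ L ⊔ Submodule.span F {x}, ∀ b ∈ L ⊔ Submodule.span F {x}, B a b = 0 := by
      intro a ha b hb
      obtain ⟨u, hu, _, hs, rfl⟩ := Submodule.mem_sup.1 ha
      obtain ⟨s, rfl⟩ := Submodule.mem_span_singleton.1 hs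
      obtain ⟨v, hv, _, ht, rfl⟩ := Submodule.mem_sup.1 hb
      obtain ⟨t, rfl⟩ := Submodule.mem_span_singleton.1 ht
      have hux : B u x = 0 := hx u hu
      have hxv : B x v = 0 := hA.isRefl _ _ (hx v hv)
      simp [hL u hu v hv, hux, hxv, hA x]
    have hlt : finrank F L < finrank F (L ⊔ Submodule.span F {x} : Submodule F U) :=
      Submodule.finrank_lt_finrank_of_lt (lt_of_le_of_ne le_sup_left fun h =>
        hxL (h.symm ▸ Submodule.mem_sup_right (Submodule.mem_span_singleton_self x)))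
    have := le_csSup hbdd ⟨_, hiso, rfl⟩
    omega
  have h := LinearMap.BilinForm.finrank_orthogonal hB L
  rw [heq, hU] at h
  omega

open QuadraticMap in
/-- Type of an even-dimensional symmetric form in odd characteristic. -/
theorem bilin_isotropic_iff_isSquare [Finite F] [FiniteDimensional F U] (h2 : (2 : F) ≠ 0)
    {B : LinearMap.BilinForm F U} (hB : B.Nondegenerate) (hS : B.IsSymm) {k : ℕ}
    (hU : finrank F U = 2 * k) (b : Basis ι F U) :
    (∃ X : Submodule F U, finrank F X = k ∧ ∀ x ∈ X, ∀ y ∈ X, B x y = 0) ↔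
      IsSquare ((-1) ^ k * (LinearMap.BilinForm.toMatrix b B).det) := by
  let Q : QuadraticForm F U := LinearMap.BilinMap.toQuadraticMap B
  have hpol : ∀ x y, polar Q x y = 2 * B x y := by
    intro x y
    rw [LinearMap.BilinMap.polar_toQuadraticMap, hS.eq y x]; ring
  have hQ : (polarBilin Q).Nondegenerate := by
    refine ⟨fun x hx => hB.1 x fun y => ?_, fun y hy => hB.2 y fun x => ?_⟩
    · exact (mul_eq_zero.1 ((hpol x y).symm.trans (hx y))).resolve_left h2
    · exact (mul_eq_zero.1 ((hpol x y).symm.trans (hy x))).resolve_left h2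
  have hiff : (∃ X : Submodule F U, finrank F X = k ∧ ∀ x ∈ X, ∀ y ∈ X, B x y = 0) ↔
      ∃ X : Submodule F U, (∀ x ∈ X, Q x = 0) ∧ finrank F X = k := by
    constructor
    · rintro ⟨X, hX, h⟩
      exact ⟨X, fun x hx => h x hx x hx, hX⟩
    · rintro ⟨X, h, hX⟩
      refine ⟨X, hX, fun x hx y hy => ?_⟩
      exact (mul_eq_zero.1 ((hpol x y).symm.trans (polar_eq_zero_of_singular h hx hy))).resolve_left h2
  have hcard : Fintype.card ι = 2 * k := by rw [← Module.finrank_eq_card_basis b, hU]
  have hgram : (gram Q b).det = (2 : F) ^ (2 * k) * (LinearMap.BilinForm.toMatrix b B).det := by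
    have : gram Q b = (2 : F) • LinearMap.BilinForm.toMatrix b B := by
      ext i j
      simp [gram, hpol, LinearMap.BilinForm.toMatrix_apply]
    rw [this, Matrix.det_smul, hcard]
  rw [hiff, singular_iff_isSquare h2 hQ hU b, hgram, two_mul k, pow_add]
  have h2k : (2 : F) ^ k ≠ 0 := pow_ne_zero _ h2
  constructor <;> rintro ⟨r, hr⟩
  · exact ⟨r / 2 ^ k, by field_simp; linear_combination hr⟩
  · exact ⟨r * 2 ^ k, by linear_combination (2 : F) ^ k * (2 : F) ^ k * hr⟩

end Cfsg.Agent.H4
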